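import Mathlib
import Cfsg.Agent.Lib.Helper99.CHO.Defs

/-!
# Project CHO (S1082 / S1083): integer tables as matrices over a field (helper47)

Generic plumbing: a matrix over `K` read from an integer table through a position map
`ix : ι → ℕ`; products, sums, transposes of such matrices are again of this form, so matrix
identities over `K` follow from integer identities checked by `decide`.
-/

set_option autoImplicit false

namespace Cfsg.Agent.Lib.Helper47.CHO

open Matrix Cfsg.Agent.Lib.Helper99.CHO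

universe u

section gen

variable {ι : Type} [Fintype ι] [DecidableEq ι]

/-- the matrix over `K` of an integer table read through the position map `ix` -/
def TM (K : Type u) [Field K] (ix : ι → ℕ) (f : ℕ → ℕ → ℤ) : Matrix ι ι K :=
  Matrix.of fun i j => ((f (ix i) (ix j) : ℤ) : K)

/-- `ix` enumerates `ι` as `0, …, n - 1` -/
structure Pos (ix : ι → ℕ) (n : ℕ) : Prop where
  lt : ∀ i, ix i < n
  inj : Function.Injective ix
  card : Fintype.card ι = n

variable {K : Type u} [Field K] {ix : ι → ℕ} {n : ℕ}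

theorem Pos.sum (hp : Pos ix n) (F : ℕ → K) :
    ∑ k, F (ix k) = ∑ k ∈ Finset.range n, F k := by
  have himg : (Finset.univ : Finset ι).image ix = Finset.range n := by
    apply Finset.eq_of_subset_of_card_le
    · intro x hx
      obtain ⟨i, -, rfl⟩ := Finset.mem_image.mp hx
      exact Finset.mem_range.mpr (hp.lt i)
    · rw [Finset.card_range, Finset.card_image_of_injective _ hp.inj, Finset.card_univ, hp.card]
  rw [← himg, Finset.sum_image (fun a _ b _ h => hp.inj h)]

theorem TM_apply (f : ℕ → ℕ → ℤ) (i j : ι) : TM K ix f i j = ((f (ix i) (ix j) : ℤ) : K) := rfl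

theorem TM_mul (hp : Pos ix n) (f g : ℕ → ℕ → ℤ) :
    TM K ix f * TM K ix g = TM K ix (fun a c => ∑ k ∈ Finset.range n, f a k * g k c) := by
  ext i j
  rw [Matrix.mul_apply, TM_apply]
  simp only [TM_apply]
  rw [hp.sum (fun k => ((f (ix i) k : ℤ) : K) * ((g k (ix j) : ℤ) : K))]
  push_cast
  rfl

theorem TM_add (f g : ℕ → ℕ → ℤ) :
    TM K ix f + TM K ix g = TM K ix (fun a c => f a c + g a c) := by
  ext i j
  rw [Matrix.add_apply, TM_apply, TM_apply, TM_apply]
  push_cast
  rfl

theorem TM_transpose (f : ℕ → ℕ → ℤ) : (TM K ix f)ᵀ = TM K ix (fun a c => f c a) := rfl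

theorem TM_congr (hp : Pos ix n) {f g : ℕ → ℕ → ℤ} (h : ∀ a < n, ∀ c < n, f a c = g a c) :
    TM K ix f = TM K ix g := by
  ext i j
  rw [TM_apply, TM_apply, h _ (hp.lt i) _ (hp.lt j)]

theorem TM_zero (hp : Pos ix n) {f : ℕ → ℕ → ℤ} (h : ∀ a < n, ∀ c < n, f a c = 0) :
    TM K ix f = 0 := by
  ext i j
  rw [TM_apply, h _ (hp.lt i) _ (hp.lt j), Int.cast_zero, Matrix.zero_apply]

theorem TM_one (hp : Pos ix n) :
    (1 : Matrix ι ι K) = TM K ix (fun a c => if a = c then 1 else 0) := by
  ext i j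
  rw [TM_apply, Matrix.one_apply]
  by_cases h : i = j
  · subst h
    simp
  · have h' : ¬ ix i = ix j := fun e => h (hp.inj e)
    simp [h, h']

/-- an alternating matrix gives the zero quadratic form -/
theorem alt_dot (X : Matrix ι ι K) (h1 : ∀ i j, X j i = -X i j) (h2 : ∀ i, X i i = 0)
    (v : ι → K) : v ⬝ᵥ X *ᵥ v = 0 := by
  rw [← Matrix.toBilin'_apply', Matrix.toBilin'_apply, ← Finset.sum_product']
  refine Finset.sum_involution (fun p _ => (p.2, p.1)) ?_ ?_ ?_ ?_
  · intro p _
    simp only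
    rw [h1 p.1 p.2]
    ring
  · intro p _ hne heq
    have h12 : p.2 = p.1 := congrArg Prod.fst heq
    apply hne
    rw [h12, h2, mul_zero, zero_mul]
  · intro p _
    exact Finset.mem_univ _
  · intro p _
    rfl

theorem TM_alt (hp : Pos ix n) {f : ℕ → ℕ → ℤ} (h : ∀ a < n, ∀ c < n, f a c + f c a = 0)
    (hd : ∀ a < n, f a a = 0) (v : ι → K) : v ⬝ᵥ TM K ix f *ᵥ v = 0 := by
  apply alt_dot
  · intro i j
    rw [TM_apply, TM_apply]
    have h1 := h _ (hp.lt i) _ (hp.lt j)
    have h2 : f (ix j) (ix i) = -f (ix i) (ix j) := by linarith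
    rw [h2, Int.cast_neg]
  · intro i
    rw [TM_apply, hd _ (hp.lt i), Int.cast_zero]

/-- `(E v) · H (E v) = v · (Eᵀ H E) v` -/
theorem dot_conj (E H : Matrix ι ι K) (v : ι → K) :
    (E *ᵥ v) ⬝ᵥ H *ᵥ (E *ᵥ v) = v ⬝ᵥ (Eᵀ * H * E) *ᵥ v := by
  have h1 : (Eᵀ * H * E) *ᵥ v = Eᵀ *ᵥ (H *ᵥ (E *ᵥ v)) := by
    rw [Matrix.mulVec_mulVec, Matrix.mulVec_mulVec]
  rw [h1, Matrix.dotProduct_mulVec v Eᵀ, Matrix.vecMul_transpose]

end gen

/-- the positions of `Fin 4 ⊕ Fin 4` -/
theorem pos8 : Pos ix8 8 where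
  lt := by
    rintro (i | i)
    · show i.val < 8
      omega
    · show 4 + i.val < 8
      omega
  inj := by
    rintro (a | a) (b | b) h
    · have h' : a.val = b.val := h
      rw [Fin.ext h']
    · have h' : a.val = 4 + b.val := h
      omega
    · have h' : 4 + a.val = b.val := h
      omega
    · have h' : 4 + a.val = 4 + b.val := h
      rw [Fin.ext (by omega : a.val = b.val)]
  card := by simp

/-- the positions of `Unit ⊕ (Fin 2 ⊕ Fin 2)` -/
theorem pos5 : Pos ix5 5 where
  lt := by
    rintro (i | i | i)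
    · show 0 < 5
      omega
    · show 1 + i.val < 5
      omega
    · show 3 + i.val < 5
      omega
  inj := by
    rintro (a | a | a) (b | b | b) h
    · rfl
    · have h' : 0 = 1 + b.val := h
      omega
    · have h' : 0 = 3 + b.val := h
      omega
    · have h' : 1 + a.val = 0 := h
      omega
    · have h' : 1 + a.val = 1 + b.val := h
      rw [Fin.ext (by omega : a.val = b.val)]
    · have h' : 1 + a.val = 3 + b.val := h
      omega
    · have h' : 3 + a.val = 0 := h
      omega
    · have h' : 3 + a.val = 1 + b.val := h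
      omega
    · have h' : 3 + a.val = 3 + b.val := h
      rw [Fin.ext (by omega : a.val = b.val)]
  card := by simp

theorem ND4_eq (K : Type u) [Field K] (r : ℕ) : ND4 K r = TM K ix8 (tab3 nListD4 r) := rfl

theorem NB2_eq (K : Type u) [Field K] (r : ℕ) : NB2 K r = TM K ix5 (tab3 nListB2 r) := rfl

theorem MB2_eq (K : Type u) [Field K] (r : ℕ) : MB2 K r = TM K ix5 (tab3 mListB2 r) := rfl

end Cfsg.Agent.Lib.Helper47.CHO
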