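import Mathlib
import Cfsg.Agent.Lib.Helper99.CHO.Defs
import Cfsg.Agent.Lib.Helper47.CHO.Tab

/-!
# Project CHO (S1082 / S1083): packages [UNIT-D4] and [ISO-D4] (helper47)
-/

set_option autoImplicit false

namespace Cfsg.Agent.Lib.Helper47.CHO

open Matrix Cfsg.Agent.Lib.Helper99.CHO

universe u

/-- integer fact: `N_r ^ 2 = 0` for type D4 -/
theorem dNN_D4 : ∀ r < 24, ∀ a < 8, ∀ c < 8,
    ∑ k ∈ Finset.range 8, tab3 nListD4 r a k * tab3 nListD4 r k c = 0 := by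
  decide +kernel

theorem ND4_sq (K : Type u) [Field K] (r : ℕ) (hr : r < 24) : ND4 K r * ND4 K r = 0 := by
  rw [ND4_eq, TM_mul pos8]
  exact TM_zero pos8 (dNN_D4 r hr)

theorem ED4mat_mul_neg (K : Type u) [Field K] (r : ℕ) (hr : r < 24) (t : K) :
    ED4mat K r t * ED4mat K r (-t) = 1 := by
  unfold ED4mat
  have h : (1 + t • ND4 K r) * (1 + (-t) • ND4 K r) = 1 - (t * t) • (ND4 K r * ND4 K r) := by
    simp only [Matrix.add_mul, Matrix.mul_add, Matrix.one_mul, Matrix.mul_one, Matrix.smul_mul,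
      Matrix.mul_smul, smul_smul]
    module
  rw [h, ND4_sq K r hr, smul_zero, sub_zero]

/-- [UNIT-D4] -/
theorem pkgUnitD4 : PkgUnitD4.{u} := by
  intro K _ r t hr
  have h1 := ED4mat_mul_neg K r hr t
  have h2 := ED4mat_mul_neg K r hr (-t)
  rw [neg_neg] at h2
  exact ⟨⟨ED4mat K r t, ED4mat K r (-t), h1, h2⟩, rfl⟩

end Cfsg.Agent.Lib.Helper47.CHO
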